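import Mathlib
import Cfsg.Agent.Lib.Jordan.Count
import Cfsg.Agent.Lib.Core.Hall

/-! The Brauer–Feit analogue of Jordan's theorem in characteristic `p`. -/

set_option autoImplicit false
set_option linter.style.haveILetI false

namespace H31

open Subgroup Module
open scoped commutatorElement

universe u v

variable {G : Type*} [Group G]

theorem le_pow_of_pow_dvd {p m k N : ℕ} (hp : p.Prime) (h : ¬ p ^ (m + 1) ∣ N) (hk : p ^ k ∣ N) :
    p ^ k ≤ p ^ m :=
  Nat.pow_le_pow_right hp.pos (not_lt.1 fun hlt => h ((pow_dvd_pow p hlt).trans hk))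

theorem exists_abelian_of_commutator [Finite G] {p m : ℕ} [hp : Fact p.Prime]
    (h : IsPGroup p (commutator G)) (hm : ¬ p ^ (m + 1) ∣ Nat.card G) :
    ∃ A : Subgroup G, (∀ x ∈ A, ∀ y ∈ A, x * y = y * x) ∧ A.index ≤ p ^ m := by
  have := h.isNilpotent
  have : Group.IsSolvable G := (Group.isSolvable_iff_subgroup_quotient (commutator G)).2
    ⟨inferInstance, (inferInstance : Group.IsSolvable (Abelianization G))⟩
  obtain ⟨H, hH⟩ := H3.exists_isPiHall (G := G) ({p}ᶜ)
  obtain ⟨h1, k, hk⟩ := (H3.isPiHall_compl_singleton_iff hp.out).1 hH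
  refine ⟨H, fun x hx y hy => ?_, hk ▸ le_pow_of_pow_dvd hp.out hm (hk ▸ H.index_dvd_card)⟩
  rw [← commutatorElement_eq_one_iff_mul_comm]
  obtain ⟨j, hj⟩ := h ⟨⁅x, y⁆, commutator_mem_commutator (mem_top x) (mem_top y)⟩
  exact orderOf_eq_one_iff.1 (Nat.eq_one_of_dvd_coprimes (h1.pow_right j)
    (H.orderOf_dvd_natCard (H.mul_mem (H.mul_mem (H.mul_mem hx hy) (H.inv_mem hx)) (H.inv_mem hy)))
    (orderOf_dvd_of_pow_eq_one (congrArg Subtype.val hj)))

section weights

variable {K V : Type*} [Field K] [AddCommGroup V] [Module K V]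

/-- The weights of a subgroup. -/
def wts (ρ : Representation K G V) (B : Subgroup G) : Set (B → K) :=
  {χ | ∃ v : V, v ≠ 0 ∧ ∀ b : B, ρ b v = χ b • v}

variable [FiniteDimensional K V] {ρ : Representation K G V} {B : Subgroup G}

theorem wts_aux (hB : ∀ x ∈ B, ∀ y ∈ B, x * y = y * x) :
    Finite (wts ρ B) ∧ Nat.card (wts ρ B) ≤ finrank K V := by
  have hi := End.independent_iInf_maxGenEigenspace_of_forall_mapsTo (fun b : B => ρ b)
    fun i j φ => End.mapsTo_maxGenEigenspace_of_comm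
      (by rw [Commute, SemiconjBy, ← map_mul, ← map_mul, hB _ i.2 _ j.2]) φ
  have := hi.fintypeNeBotOfFiniteDimensional
  have h1 := hi.subtype_ne_bot_le_finrank
  let f : wts ρ B → {χ : B → K // ⨅ b : B, End.maxGenEigenspace (ρ b) (χ b) ≠ ⊥} :=
    fun χ => ⟨χ, by
      obtain ⟨v, hv, h⟩ := χ.2
      refine (Submodule.ne_bot_iff _).2 ⟨v, (Submodule.mem_iInf _).2 fun b => ?_, hv⟩
      exact End.eigenspace_le_maxGenEigenspace (End.mem_eigenspace_iff.2 (h b))⟩
  have hf : Function.Injective f := fun a b h => Subtype.ext (congrArg (fun z => z.1) h)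
  refine ⟨Finite.of_injective f hf, (Nat.card_le_card_of_injective f hf).trans ?_⟩
  rwa [Nat.card_eq_fintype_card]

theorem eq_of_wts [IsAlgClosed K] (hρ : Function.Injective ρ)
    (hB : ∀ x ∈ B, ∀ y ∈ B, x * y = y * x) {k : ℕ} (hk : (k : K) ≠ 0) (hBk : ∀ x ∈ B, x ^ k = 1)
    {a b : B} (h : ∀ χ ∈ wts ρ B, χ a = χ b) : a = b := by
  have h1 := End.iSup_iInf_maxGenEigenspace_eq_top_of_iSup_maxGenEigenspace_eq_top_of_commute
    (fun b : B => ρ b) (fun i j _ => by
      change ρ i * ρ j = ρ j * ρ i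
      rw [← map_mul, ← map_mul, hB _ i.2 _ j.2])
    fun i => End.iSup_maxGenEigenspace_eq_top _
  have h2 : ∀ x : B, End.IsFinitelySemisimple (ρ x) := fun x =>
    (End.isSemisimple_of_squarefree_aeval_eq_zero
      (Polynomial.X_pow_sub_one_separable_iff.2 hk).squarefree
      (by rw [map_sub, Polynomial.aeval_X_pow, map_one, ← map_pow, hBk x x.2, map_one,
        sub_self])).isFinitelySemisimple
  simp only [fun x : B => (h2 x).maxGenEigenspace_eq_eigenspace] at h1
  refine Subtype.ext (hρ (LinearMap.ext fun v => ?_))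
  have hv : v ∈ ⨆ χ : B → K, ⨅ i : B, End.eigenspace (ρ i) (χ i) := h1 ▸ Submodule.mem_top
  refine Submodule.iSup_induction (motive := fun v => ρ a v = ρ b v) _ hv (fun χ v hv => ?_)
    (by simp) fun x y hx hy => by rw [map_add, map_add, hx, hy]
  have h3 : ∀ i : B, ρ i v = χ i • v := fun i =>
    End.mem_eigenspace_iff.1 ((Submodule.mem_iInf _).1 hv i)
  by_cases h0 : v = 0
  · simp [h0]
  rw [h3, h3, h χ ⟨v, h0, h3⟩]

theorem relIndex_centralizer_le [IsAlgClosed K] (hρ : Function.Injective ρ)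
    (hB : ∀ x ∈ B, ∀ y ∈ B, x * y = y * x) {k : ℕ} (hk : (k : K) ≠ 0) (hBk : ∀ x ∈ B, x ^ k = 1)
    {n : ℕ} (hn : finrank K V ≤ n) :
    (centralizer (B : Set G)).relIndex (normalizer (B : Set G)) ≤ (n + 1) ^ n := by
  obtain ⟨_, h1⟩ := wts_aux (ρ := ρ) hB
  have hm : ∀ (x : normalizer (B : Set G)) (b : B), (x : G) * b * (x : G)⁻¹ ∈ B :=
    fun x b => (mem_normalizer_iff.1 x.2 b).1 b.2
  refine (relIndex_le_card_of_map (β := wts ρ B → wts ρ B)
    (fun x χ => ⟨fun b => χ.1 ⟨_, hm x b⟩, ?_⟩) ?_).trans ?_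
  · obtain ⟨v, hv, h⟩ := χ.2
    refine ⟨ρ (x : G)⁻¹ v, fun h0 => hv ?_, fun b => ?_⟩
    · have := congrArg (ρ x) h0
      rwa [← End.mul_apply, ← map_mul, mul_inv_cancel, map_one, map_zero] at this
    · rw [← map_smul, ← h, ← End.mul_apply, ← End.mul_apply, ← map_mul, ← map_mul]
      congr 2; group
  · intro x y hxy b hb
    have := congrArg Subtype.val (eq_of_wts hρ hB hk hBk (a := ⟨_, hm x ⟨b, hb⟩⟩)
      (b := ⟨_, hm y ⟨b, hb⟩⟩) fun χ hχ =>
        congrFun (congrArg Subtype.val (congrFun hxy ⟨χ, hχ⟩)) ⟨b, hb⟩)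
    change (x : G) * b * (x : G)⁻¹ = y * b * (y : G)⁻¹ at this
    calc b * ((x : G)⁻¹ * y) = (x : G)⁻¹ * (x * b * (x : G)⁻¹) * y := by group
      _ = _ := by rw [this]; group
  · rw [Nat.card_fun]
    exact (Nat.pow_le_pow_left (by omega) _).trans (Nat.pow_le_pow_right n.succ_pos (by omega))

theorem card_le_pow_of_wts [IsAlgClosed K] (hρ : Function.Injective ρ)
    (hB : ∀ x ∈ B, ∀ y ∈ B, x * y = y * x) {k : ℕ} (hk : (k : K) ≠ 0) (hBk : ∀ x ∈ B, x ^ k = 1)
    {j : ℕ} (hj : 0 < j) (hBj : ∀ x ∈ B, x ^ j = 1) {n : ℕ} (hn : finrank K V ≤ n) :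
    Nat.card B ≤ j ^ n := by
  classical
  obtain ⟨_, h1⟩ := wts_aux (ρ := ρ) hB
  refine (Nat.card_le_card_of_injective (β := wts ρ B → Polynomial.nthRootsFinset j (1 : K))
    (fun x χ => ⟨χ.1 x, ?_⟩) ?_).trans ?_
  · obtain ⟨v, hv, h⟩ := χ.2
    have h2 := End.HasEigenvector.pow_apply (f := ρ x)
      ⟨End.mem_eigenspace_iff.2 (h x), hv⟩ j
    rw [← map_pow, hBj x x.2, map_one, End.one_apply] at h2
    rw [Polynomial.mem_nthRootsFinset hj]
    exact smul_left_injective K hv (by simpa using h2.symm)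
  · intro x y hxy
    exact eq_of_wts hρ hB hk hBk fun χ hχ => congrArg Subtype.val (congrFun hxy ⟨χ, hχ⟩)
  · rw [Nat.card_fun]
    refine (Nat.pow_le_pow_left ?_ _).trans (Nat.pow_le_pow_right hj (by omega))
    rw [Nat.card_eq_fintype_card, Fintype.card_coe, Polynomial.nthRootsFinset_def]
    exact (Multiset.toFinset_card_le _).trans (Polynomial.card_nthRoots j 1)

end weights

/-- The `k`-torsion of an abelian subgroup. -/
def tors {F : Subgroup G} (hF : ∀ x ∈ F, ∀ y ∈ F, x * y = y * x) (k : ℕ) : Subgroup G where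
  carrier := {x | x ∈ F ∧ x ^ k = 1}
  mul_mem' := fun {a b} ha hb => ⟨F.mul_mem ha.1 hb.1, by
    rw [Commute.mul_pow (hF a ha.1 b hb.1), ha.2, hb.2, one_mul]⟩
  one_mem' := ⟨F.one_mem, one_pow k⟩
  inv_mem' := fun {a} ha => ⟨F.inv_mem ha.1, by rw [inv_pow, ha.2, inv_one]⟩

theorem relIndex_tors_le [Finite G] {p m : ℕ} [hp : Fact p.Prime]
    (hm : ¬ p ^ (m + 1) ∣ Nat.card G) {F : Subgroup G} (hF : ∀ x ∈ F, ∀ y ∈ F, x * y = y * x) :
    (tors hF (ordCompl[p] (Nat.card G))).relIndex F ≤ p ^ m := by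
  refine (relIndex_le_card_of_map (β := tors hF (ordProj[p] (Nat.card G)))
    (fun x => ⟨(x : G) ^ ordCompl[p] (Nat.card G), F.pow_mem x.2 _, ?_⟩) ?_).trans ?_
  · rw [← pow_mul, mul_comm, Nat.ordProj_mul_ordCompl_eq_self, pow_card_eq_one']
  · intro x y hxy
    refine ⟨F.mul_mem (F.inv_mem x.2) y.2, ?_⟩
    have : (x : G) ^ _ = y ^ _ := congrArg Subtype.val hxy
    rw [Commute.mul_pow (hF _ (F.inv_mem x.2) _ y.2), inv_pow, this, inv_mul_cancel]
  · have h1 : IsPGroup p (tors hF (ordProj[p] (Nat.card G))) :=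
      fun x => ⟨_, Subtype.ext x.2.2⟩
    obtain ⟨j, hj⟩ := IsPGroup.iff_card.1 h1
    exact hj ▸ le_pow_of_pow_dvd hp.out hm (hj ▸ card_subgroup_dvd_card _)

/-- The statement proved by induction on the degree. -/
def ModJordan (p m n c : ℕ) : Prop :=
  ∀ (G : Type u) [Group G] [Finite G] (K : Type v) [Field K] [IsAlgClosed K] [CharP K p]
    (V : Type v) [AddCommGroup V] [Module K V] [FiniteDimensional K V] (ρ : Representation K G V),
    Function.Injective ρ → finrank K V ≤ n → ¬ p ^ (m + 1) ∣ Nat.card G →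
    ∃ A : Subgroup G, (∀ x ∈ A, ∀ y ∈ A, x * y = y * x) ∧ A.index ≤ c

theorem ModJordan.of_rep {p m n c : ℕ} (h : ModJordan.{u, v} p m n c) {G : Type u} [Group G]
    [Finite G] {K : Type v} [Field K] [IsAlgClosed K] [CharP K p] {V : Type v} [AddCommGroup V]
    [Module K V] [FiniteDimensional K V] (ρ : Representation K G V) (hn : finrank K V ≤ n)
    (hm : ¬ p ^ (m + 1) ∣ Nat.card G) :
    ∃ A : Subgroup G, (∀ x ∈ A, ∀ y ∈ A, ρ ⁅x, y⁆ = 1) ∧ A.index ≤ c := by
  obtain ⟨A, h1, h2⟩ := h (G ⧸ MonoidHom.ker ρ) K V (QuotientGroup.lift _ ρ le_rfl) (by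
    intro x y hxy
    obtain ⟨x, rfl⟩ := QuotientGroup.mk_surjective x
    obtain ⟨y, rfl⟩ := QuotientGroup.mk_surjective y
    refine QuotientGroup.eq.2 ?_
    change ρ x = ρ y at hxy
    rw [MonoidHom.mem_ker, map_mul, ← hxy, ← map_mul, inv_mul_cancel, map_one]) hn
    fun hd => hm (hd.trans (card_quotient_dvd_card _))
  refine ⟨A.comap (QuotientGroup.mk' _), fun x hx y hy => ?_,
    by rwa [index_comap_of_surjective _ (QuotientGroup.mk'_surjective _)]⟩
  rw [← MonoidHom.mem_ker, ← QuotientGroup.eq_one_iff, ← QuotientGroup.mk'_apply,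
    map_commutatorElement, commutatorElement_eq_one_iff_mul_comm]
  exact h1 _ hx _ hy

theorem ModJordan.of_reducible {p m n c : ℕ} [hp : Fact p.Prime] (h : ModJordan.{u, v} p m n c)
    {G : Type u} [Group G] [Finite G] {K : Type v} [Field K] [IsAlgClosed K] [CharP K p]
    {V : Type v} [AddCommGroup V] [Module K V] [FiniteDimensional K V] (ρ : Representation K G V)
    (hρ : Function.Injective ρ) (hn : finrank K V ≤ n + 1) (hm : ¬ p ^ (m + 1) ∣ Nat.card G)
    {W : Submodule K V} (h0 : W ≠ ⊥) (h1 : W ≠ ⊤) (hW : ∀ g, W ≤ W.comap (ρ g)) :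
    ∃ A : Subgroup G, (∀ x ∈ A, ∀ y ∈ A, x * y = y * x) ∧ A.index ≤ p ^ m * (c * c) := by
  have e1 := W.finrank_quotient_add_finrank
  have e2 := Submodule.finrank_lt h1
  have e3 : finrank K W ≠ 0 := fun e => h0 (Submodule.finrank_eq_zero.1 e)
  obtain ⟨A, hA, hAi⟩ := h.of_rep (ρ.subrepresentation W hW) (by omega) hm
  obtain ⟨B, hB, hBi⟩ := h.of_rep (ρ.quotient W hW) (by omega) hm
  have hN : IsPGroup p ((MonoidHom.ker (ρ.subrepresentation W hW) ⊓
      MonoidHom.ker (ρ.quotient W hW) : Subgroup G)) := by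
    rintro ⟨x, hx1, hx2⟩
    have h2 : (ρ x - 1) ^ 2 = 0 := by
      ext v
      have h3 : ρ x v - v ∈ W := by
        rw [← Submodule.Quotient.eq]
        exact LinearMap.congr_fun (MonoidHom.mem_ker.1 hx2) (Submodule.Quotient.mk v)
      have h4 := congrArg Subtype.val (LinearMap.congr_fun (MonoidHom.mem_ker.1 hx1) ⟨_, h3⟩)
      change ρ x (ρ x v - v) = ρ x v - v at h4
      rw [pow_two, End.mul_apply, LinearMap.sub_apply, LinearMap.sub_apply, End.one_apply,
        End.one_apply, h4, sub_self, LinearMap.zero_apply]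
    refine ⟨1, Subtype.ext (hρ ?_)⟩
    have h5 : ρ x ^ p = 1 := by
      obtain ⟨k, hk⟩ := Nat.exists_eq_add_of_le hp.out.two_le
      have h6 : ∀ j : ℕ, ρ x ^ j = 1 + j • (ρ x - 1) := by
        intro j
        induction j with
        | zero => simp
        | succ j ih =>
          rw [pow_succ, ih, succ_nsmul]
          have : j • (ρ x - 1) * ρ x = j • (ρ x - 1) + j • (ρ x - 1) ^ 2 := by
            rw [← smul_add, smul_mul_assoc]; congr 1; noncomm_ring
          rw [add_mul, this, h2]; simp; abel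
      rw [h6, ← Nat.cast_smul_eq_nsmul K, CharP.cast_eq_zero, zero_smul, add_zero]
    simpa using h5
  obtain ⟨C, hC, hCi⟩ := exists_abelian_of_commutator (G := (A ⊓ B : Subgroup G)) (p := p) (m := m)
    ((hN.comap_subtype (K := A ⊓ B)).to_le (commutator_le.2 fun x _ y _ =>
      ⟨hA x x.2.1 y y.2.1, hB x x.2.2 y y.2.2⟩))
    fun hd => hm (hd.trans (card_subgroup_dvd_card _))
  refine ⟨C.map (A ⊓ B).subtype, ?_, ?_⟩
  · rintro _ ⟨x, hx, rfl⟩ _ ⟨y, hy, rfl⟩
    rw [← map_mul, ← map_mul, hC x hx y hy]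
  · rw [index_map_subtype]
    exact Nat.mul_le_mul hCi (index_inf_le.trans (Nat.mul_le_mul hAi hBi))

theorem exists_modJordan (p m : ℕ) [hp : Fact p.Prime] (n : ℕ) :
    ∃ c, ModJordan.{u, v} p m n c := by
  induction n with
  | zero =>
    refine ⟨1, fun G _ _ K _ _ _ V _ _ _ ρ hρ hn _ => ⟨⊤, fun x _ y _ => hρ ?_, by simp⟩⟩
    have := finrank_zero_iff.1 (Nat.le_zero.1 hn)
    exact Subsingleton.elim _ _
  | succ n ih =>
    obtain ⟨c, hc⟩ := ih
    set e := p ^ m * (c * c + 1) with he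
    have he1 : p ^ m ≤ e := Nat.le_mul_of_pos_right _ (Nat.succ_pos _)
    have he2 : p ^ m * (c * c) ≤ e := Nat.mul_le_mul_left _ (Nat.le_succ _)
    obtain ⟨Y, hY⟩ := jordan_count e ((n + 1) * (n + 1)) ((n + 1 + 1) ^ (n + 1))
      ((e ^ ((n + 1) * (n + 1) + 1)).factorial ^ (n + 1) * p ^ m)
      ((Nat.one_le_pow _ _ hp.out.pos).trans he1)
    refine ⟨max Y e, fun G _ _ K _ _ _ V _ _ _ ρ hρ hn hm => ?_⟩
    have hcen : ∀ g : G, (∀ μ : K, ρ g ≠ μ • 1) → ∃ A : Subgroup G,
        (∀ x ∈ A, ∀ y ∈ A, x * y = y * x) ∧ A.relIndex (centralizer {g}) ≤ e := by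
      intro g hg
      have : Nontrivial V := not_subsingleton_iff_nontrivial.1 fun _ =>
        hg 0 (Subsingleton.elim _ _)
      obtain ⟨μ, hμ⟩ := End.exists_eigenvalue (ρ g)
      obtain ⟨A, h1, h2⟩ := hc.of_reducible (ρ.comp (centralizer {g}).subtype)
        (hρ.comp Subtype.val_injective) hn (fun hd => hm (hd.trans (card_subgroup_dvd_card _)))
        (W := End.eigenspace (ρ g) μ) hμ (fun ht => hg μ (LinearMap.ext fun v =>
          End.mem_eigenspace_iff.1 (ht ▸ Submodule.mem_top))) (by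
            intro x v hv
            change ρ x v ∈ End.eigenspace (ρ g) μ
            rw [End.mem_eigenspace_iff] at hv ⊢
            rw [← End.mul_apply, ← map_mul, ← mem_centralizer_singleton_iff.1 x.2, map_mul,
              End.mul_apply, hv, map_smul])
      refine ⟨A.map (centralizer {g}).subtype, ?_, ?_⟩
      · rintro _ ⟨x, hx, rfl⟩ _ ⟨y, hy, rfl⟩
        rw [← map_mul, ← map_mul, h1 x hx y hy]
      · rw [relIndex, subgroupOf, comap_map_eq_self_of_injective (subtype_injective _)]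
        exact h2.trans he2
    have hk : ((ordCompl[p] (Nat.card G) : ℕ) : K) ≠ 0 := fun h =>
      Nat.not_dvd_ordCompl hp.out Nat.card_pos.ne' ((CharP.cast_eq_zero_iff K p _).1 h)
    obtain ⟨A, h1, h2⟩ := hY G
      (fun A => finrank K (Subalgebra.centralizer K (ρ '' A)).toSubmodule) (fun A => by
        refine (Submodule.finrank_le _).trans ?_
        rw [finrank_linearMap]
        exact Nat.mul_le_mul hn hn) (fun A B hBA hne => by
        refine Submodule.finrank_lt_finrank_of_lt (lt_of_le_of_ne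
          (Subalgebra.centralizer_le K _ _ (Set.image_mono hBA)) fun h => hne fun x hx a ha => ?_)
        have h3 : ρ x ∈ (Subalgebra.centralizer K (ρ '' A)).toSubmodule := by
          rw [h]
          rintro _ ⟨b, hb, rfl⟩
          rw [← map_mul, ← map_mul, hx b hb]
        exact hρ (by rw [map_mul, map_mul]; exact h3 _ ⟨a, ha, rfl⟩))
      (fun g hg => hcen g fun μ hμ => hg (mem_center_iff.2 fun x => hρ (by
        rw [map_mul, map_mul, hμ]; simp)))
      (fun F hF => by
        have h3 := relIndex_centralizer_le (B := tors hF.1 (ordCompl[p] (Nat.card G))) hρ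
          (fun x hx y hy => hF.1 x hx.1 y hy.1) hk (fun x hx => hx.2) hn
        refine (relIndex_le_of_le_left (hF.2 (tors hF.1 (ordCompl[p] (Nat.card G))) (fun x hx => hx.1)
          ((relIndex_tors_le hm hF.1).trans he1)) FiniteIndex.index_ne_zero).trans
          ((relIndex_le_of_le_right (fun x hx => ?_) FiniteIndex.index_ne_zero).trans h3)
        rw [mem_normalizer_iff] at hx ⊢
        intro y
        refine and_congr (hx y) ?_
        rw [conj_pow, conj_eq_one_iff])
      (fun F hF => by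
        set j := (e ^ ((n + 1) * (n + 1) + 1)).factorial
        set B := tors hF.1 (ordCompl[p] (Nat.card G))
        change Nat.card (tors hF.1 j) ≤ _
        rw [← card_mul_index (B.subgroupOf (tors hF.1 j))]
        refine Nat.mul_le_mul ?_ ((relIndex_le_of_le_right (K := tors hF.1 j) (fun x hx => hx.1)
          FiniteIndex.index_ne_zero).trans (relIndex_tors_le hm hF.1))
        rw [← inf_subgroupOf_right, Nat.card_congr (subgroupOfEquivOfLe inf_le_right).toEquiv]
        exact card_le_pow_of_wts (B := B ⊓ tors hF.1 j) hρ (fun x hx y hy => hF.1 x hx.1.1 y hy.1.1) hk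
          (fun x hx => hx.1.2) (Nat.factorial_pos _) (fun x hx => hx.2.2) hn)
    exact ⟨A, h1, le_max_of_le_left h2⟩

end H31
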