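import Mathlib
import Cfsg.Agent.Lib.Core.Fitting
import Cfsg.Agent.Lib.Deg.FS2
import Cfsg.Agent.Lib.Jordan.Main

/-! B. H. Neumann's and P. M. Neumann's theorems: groups with bounded conjugacy classes, or with
many conjugacy classes, have a nilpotent normal subgroup of bounded index. -/

set_option autoImplicit false
set_option linter.style.haveILetI false

namespace H31

open Cfsg Subgroup
open scoped commutatorElement

variable {G : Type*} [Group G]

theorem index_centralizer_mul_le [Finite G] (a b : G) :
    (centralizer ({a * b} : Set G)).index ≤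
      (centralizer ({a} : Set G)).index * (centralizer ({b} : Set G)).index := by
  refine le_trans (index_antitone (H := centralizer {a} ⊓ centralizer {b}) fun x hx => ?_)
    index_inf_le
  rw [mem_centralizer_singleton_iff]
  have h1 : Commute x a := mem_centralizer_singleton_iff.1 hx.1
  have h2 : Commute x b := mem_centralizer_singleton_iff.1 hx.2
  exact h1.mul_right h2

theorem centralizer_singleton_inv (a : G) :
    centralizer ({a⁻¹} : Set G) = centralizer ({a} : Set G) := by
  ext x
  rw [mem_centralizer_singleton_iff, mem_centralizer_singleton_iff]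
  exact Commute.inv_right_iff

theorem index_centralizer_conj [Finite G] (a g : G) :
    (centralizer ({g * a * g⁻¹} : Set G)).index = (centralizer ({a} : Set G)).index := by
  rw [← H6.card_isConj_eq_index, ← H6.card_isConj_eq_index]
  have h : IsConj a (g * a * g⁻¹) := isConj_iff.2 ⟨g, rfl⟩
  exact Nat.card_congr (Equiv.subtypeEquivRight fun x => ⟨h.trans, h.symm.trans⟩)

/-- B. H. Neumann: bounded conjugacy classes give a nilpotent normal subgroup of bounded index. -/
theorem index_fitting_le_of_classes [Finite G] {n : ℕ}
    (h : ∀ x : G, (centralizer ({x} : Set G)).index ≤ n) :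
    (fittingSubgroup G).index ≤ (n ^ (2 * n)).factorial := by
  classical
  obtain ⟨a, ha⟩ := Finite.exists_max fun x : G => (centralizer ({x} : Set G)).index
  let C := {c : G // IsConj a c}
  haveI : Fintype C := Fintype.ofFinite C
  have hb : ∀ c : C, ∃ b : G, b * a * b⁻¹ = c := fun c => isConj_iff.1 c.2
  choose b hb using hb
  have hCn : Fintype.card C ≤ n := by
    rw [← Nat.card_eq_fintype_card, H6.card_isConj_eq_index]; exact h a
  have hn : 1 ≤ n := le_trans (Nat.pos_of_ne_zero FiniteIndex.index_ne_zero) (h 1)
  set Y : Subgroup G := (⨅ c : C, centralizer ({(c : G)} : Set G)) ⊓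
    ⨅ c : C, centralizer ({b c} : Set G) with hY
  have hYi : Y.index ≤ n ^ (2 * n) := by
    have h1 : ∀ f : C → G, (⨅ c : C, centralizer ({f c} : Set G)).index ≤ n ^ n := fun f =>
      calc _ ≤ ∏ c : C, (centralizer ({f c} : Set G)).index := index_iInf_le _
        _ ≤ ∏ _c : C, n := Finset.prod_le_prod' fun c _ => h _
        _ = n ^ Fintype.card C := by simp
        _ ≤ n ^ n := Nat.pow_le_pow_right hn hCn
    calc Y.index ≤ _ := index_inf_le
      _ ≤ n ^ n * n ^ n := Nat.mul_le_mul (h1 _) (h1 _)
      _ = _ := by ring
  have hYc : ∀ y ∈ Y, ∀ c : C, Commute y c := fun y hy c =>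
    mem_centralizer_singleton_iff.1 (mem_iInf.1 hy.1 c)
  have hYb : ∀ y ∈ Y, ∀ c : C, Commute y (b c) := fun y hy c =>
    mem_centralizer_singleton_iff.1 (mem_iInf.1 hy.2 c)
  have key : ∀ y ∈ Y, ∀ x : G, ∃ c : C, x * (y * a) * x⁻¹ = y * c := by
    intro y hy x
    let f : C → {z : G // IsConj (y * a) z} := fun c => ⟨y * c, isConj_iff.2 ⟨b c, by
      rw [← hb c, ← mul_assoc, ← (hYb y hy c).eq]; group⟩⟩
    have hf : Function.Injective f := fun c d hcd =>
      Subtype.ext (mul_left_cancel (congrArg Subtype.val hcd))
    have hsurj : Function.Surjective f := by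
      refine (hf.bijective_of_nat_card_le ?_).2
      rw [H6.card_isConj_eq_index, H6.card_isConj_eq_index]
      exact ha _
    obtain ⟨c, hc⟩ := hsurj ⟨x * (y * a) * x⁻¹, isConj_iff.2 ⟨x, rfl⟩⟩
    exact ⟨c, (congrArg Subtype.val hc).symm⟩
  have hnil : Group.IsNilpotent Y := by
    apply H1.isNilpotent_of_commutator_le_centralizer
    rw [commutator_le]
    intro y hy x _
    obtain ⟨c, hc⟩ := key y⁻¹ (inv_mem hy) x
    have e : ⁅y, x⁆ = c * (x * a * x⁻¹)⁻¹ := by
      have : (c : G) = y * (x * (y⁻¹ * a) * x⁻¹) := by rw [hc]; group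
      rw [this, commutatorElement_def]; group
    rw [e, mem_centralizer_iff]
    intro z hz
    exact ((hYc z hz c).mul_right
      (hYc z hz ⟨x * a * x⁻¹, isConj_iff.2 ⟨x, rfl⟩⟩).inv_right).eq
  have hle : Y.normalCore ≤ fittingSubgroup G :=
    H1.le_fitting (H1.isNilpotent_of_le hnil Y.normalCore_le)
  calc _ ≤ Y.normalCore.index := index_antitone hle
    _ ≤ Y.index.factorial := Nat.le_of_dvd (Nat.factorial_pos _) (index_normalCore_dvd_factorial Y)
    _ ≤ _ := Nat.factorial_le hYi

/-- If many elements have few conjugates, the subgroup they generate has bounded classes. -/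
theorem index_centralizer_le_of_mem_closure [Finite G] {r s : ℕ}
    (h : Nat.card G ≤ s * Nat.card {x : G // (centralizer ({x} : Set G)).index ≤ r}) {g : G}
    (hg : g ∈ closure {x : G | (centralizer ({x} : Set G)).index ≤ r}) :
    (centralizer ({g} : Set G)).index ≤ r ^ (3 * s + 1) := by
  classical
  haveI := Fintype.ofFinite G
  let B : ℕ → Finset G := fun j =>
    Finset.univ.filter fun x => (centralizer ({x} : Set G)).index ≤ r ^ j
  have hB : ∀ j x, x ∈ B j ↔ (centralizer ({x} : Set G)).index ≤ r ^ j := fun j x => by simp [B]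
  have hX : Nat.card {x : G // (centralizer ({x} : Set G)).index ≤ r} = (B 1).card := by
    rw [Nat.card_eq_fintype_card, Fintype.card_subtype]; simp [B]
  rw [hX] at h
  have hr : 1 ≤ r := by
    by_contra hr
    have : B 1 = ∅ := by
      rw [Finset.eq_empty_iff_forall_notMem]
      intro x hx
      rw [hB, pow_one] at hx
      have : (centralizer ({x} : Set G)).index ≠ 0 := FiniteIndex.index_ne_zero
      omega
    rw [this] at h
    have := Nat.card_pos (α := G)
    rw [Finset.card_empty, mul_zero] at h
    omega
  have hmono : ∀ {i j}, i ≤ j → B i ⊆ B j := fun hij x hx =>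
    (hB _ _).2 (((hB _ _).1 hx).trans (Nat.pow_le_pow_right hr hij))
  have hmul : ∀ {i j x y}, x ∈ B i → y ∈ B j → x * y ∈ B (i + j) := fun hx hy =>
    (hB _ _).2 ((index_centralizer_mul_le _ _).trans (by
      rw [pow_add]; exact Nat.mul_le_mul ((hB _ _).1 hx) ((hB _ _).1 hy)))
  have hinv : ∀ {i x}, x ∈ B i → x⁻¹ ∈ B i := fun hx => by
    rw [hB, centralizer_singleton_inv]; exact (hB _ _).1 hx
  have hone : ∀ j, (1 : G) ∈ B j := fun j => hmono (Nat.zero_le j) (by
    rw [hB, pow_zero]
    have : centralizer ({1} : Set G) = ⊤ := by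
      ext x; simp [mem_centralizer_iff]
    rw [this, index_top])
  have hstep : ∀ i, (∃ j ≤ 3 * i + 1, ∀ x ∈ B j, ∀ y ∈ B 1, x * y ∈ B j) ∨
      1 + i * (B 1).card ≤ (B (3 * i)).card := by
    intro i
    induction i with
    | zero => right; simpa using ⟨1, hone 0⟩
    | succ i ih =>
      rcases ih with ⟨j, hj, hj'⟩ | ih
      · exact Or.inl ⟨j, by omega, hj'⟩
      by_cases hc : ∀ x ∈ B (3 * i + 1), ∀ y ∈ B 1, x * y ∈ B (3 * i + 1)
      · exact Or.inl ⟨_, by omega, hc⟩
      right
      push Not at hc
      obtain ⟨x, hx, y, hy, hxy⟩ := hc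
      have hdisj : Disjoint (B (3 * i)) ((B 1).image (x * y * ·)) := by
        rw [Finset.disjoint_left]
        intro z hz hz'
        obtain ⟨w, hw, rfl⟩ := Finset.mem_image.1 hz'
        apply hxy
        have := hmul hz (hinv hw)
        rwa [mul_inv_cancel_right] at this
      have hsub : B (3 * i) ∪ (B 1).image (x * y * ·) ⊆ B (3 * (i + 1)) := by
        apply Finset.union_subset (hmono (by omega))
        intro z hz'
        obtain ⟨w, hw, rfl⟩ := Finset.mem_image.1 hz'
        exact hmono (by omega) (hmul (hmul hx hy) hw)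
      have := Finset.card_le_card hsub
      rw [Finset.card_union_of_disjoint hdisj,
        Finset.card_image_of_injective _ (mul_right_injective _)] at this
      nlinarith
  rcases hstep s with ⟨j, hj, hj'⟩ | hs
  · have : g ∈ B j := by
      induction hg using closure_induction_right with
      | one => exact hone j
      | mul_right x _ y hy ih => exact hj' x ih y ((hB _ _).2 (by simpa using hy))
      | mul_inv_cancel x _ y hy ih => exact hj' x ih _ (hinv ((hB _ _).2 (by simpa using hy)))
    exact (hB _ _).1 (hmono hj this)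
  · have := Finset.card_le_univ (B (3 * s))
    rw [← Nat.card_eq_fintype_card] at this
    omega

/-- P. M. Neumann: a group with many conjugacy classes has a nilpotent normal subgroup of bounded
index. -/
theorem exists_bound_index_fitting (c : ℕ) : ∃ N : ℕ, ∀ (G : Type*) [Group G] [Finite G],
    Nat.card G ≤ c * Nat.card (ConjClasses G) → (fittingSubgroup G).index ≤ N := by
  classical
  refine ⟨2 * c * ((((2 * c) ^ (3 * (2 * c) + 1)) ^ (2 * (2 * c) ^ (3 * (2 * c) + 1))).factorial),
    fun G _ _ h => ?_⟩
  haveI := Fintype.ofFinite G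
  set S : Set G := {x : G | (centralizer ({x} : Set G)).index ≤ 2 * c} with hS
  have hG : 0 < Nat.card G := Nat.card_pos
  have hX : Nat.card G ≤ 2 * c * Nat.card {x : G // (centralizer ({x} : Set G)).index ≤ 2 * c} := by
    have h1 := H87.sum_card_centralizer (G := G)
    have h2 : ∀ g : G, 2 * c * Nat.card (centralizer ({g} : Set G)) ≤
        (if (centralizer ({g} : Set G)).index ≤ 2 * c then 2 * c * Nat.card G else 0) +
          Nat.card G := by
      intro g
      split_ifs with hg
      · have := Subgroup.card_le_card_group (centralizer ({g} : Set G))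
        nlinarith
      · have := (centralizer ({g} : Set G)).card_mul_index
        nlinarith
    have h3 := Finset.sum_le_sum fun g (_ : g ∈ Finset.univ) => h2 g
    rw [← Finset.mul_sum, h1, Finset.sum_add_distrib, ← Finset.sum_filter, Finset.sum_const,
      Finset.sum_const, Finset.card_univ, ← Fintype.card_subtype, ← Nat.card_eq_fintype_card,
      ← Nat.card_eq_fintype_card, smul_eq_mul, smul_eq_mul] at h3
    nlinarith
  have hKn : (closure S).Normal := by
    refine ⟨fun x hx g => ?_⟩
    induction hx using Subgroup.closure_induction with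
    | mem x hx =>
      apply Subgroup.subset_closure
      change (centralizer ({g * x * g⁻¹} : Set G)).index ≤ 2 * c
      rw [index_centralizer_conj]; exact hx
    | one => simp
    | mul x y _ _ hx hy =>
      have : g * (x * y) * g⁻¹ = (g * x * g⁻¹) * (g * y * g⁻¹) := by group
      rw [this]; exact mul_mem hx hy
    | inv x _ hx =>
      have : g * x⁻¹ * g⁻¹ = (g * x * g⁻¹)⁻¹ := by group
      rw [this]; exact inv_mem hx
  have hKi : (closure S).index ≤ 2 * c := by
    have h1 : Nat.card {x : G // (centralizer ({x} : Set G)).index ≤ 2 * c} ≤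
        Nat.card (closure S) :=
      Nat.card_le_card_of_injective (fun x => ⟨x.1, subset_closure x.2⟩)
        fun x y hxy => Subtype.ext (by simpa using hxy)
    have h2 := (closure S).card_mul_index
    have h3 : 0 < Nat.card (closure S) := Nat.card_pos
    nlinarith
  have hF := index_fitting_le_of_classes (G := closure S) (n := (2 * c) ^ (3 * (2 * c) + 1))
    fun x => by
      refine le_trans ?_ (index_centralizer_le_of_mem_closure hX x.2)
      have : centralizer ({x} : Set (closure S)) =
          (centralizer ({(x : G)} : Set G)).subgroupOf (closure S) := by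
        ext y
        rw [mem_subgroupOf, mem_centralizer_singleton_iff, mem_centralizer_singleton_iff,
          Subtype.ext_iff]
        rfl
      rw [this]
      exact relIndex_le_of_le_right le_top (by
        rw [relIndex_top_right]; exact FiniteIndex.index_ne_zero) |>.trans
        (by rw [relIndex_top_right])
  calc _ ≤ ((fittingSubgroup (closure S)).map (closure S).subtype).index :=
        index_antitone (H1.map_subtype_fitting_le _)
    _ = _ := index_map_subtype _
    _ ≤ _ := by rw [mul_comm]; exact Nat.mul_le_mul hKi hF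

theorem card_le_sq_mul_card_conjClasses [Finite G] {t : G} (ht : orderOf t = 2) :
    Nat.card G ≤ Nat.card (centralizer ({t} : Set G)) ^ 2 * Nat.card (ConjClasses G) := by
  classical
  haveI := Fintype.ofFinite G
  have h1 : (centralizer ({t} : Set G)).index ≤ Nat.card {x : G // orderOf x = 2} := by
    rw [← H6.card_isConj_eq_index]
    refine Nat.card_le_card_of_injective (fun x => ⟨x.1, ?_⟩)
      fun x y hxy => Subtype.ext (by simpa using hxy)
    obtain ⟨c, hc⟩ := isConj_iff.1 x.2
    rw [← hc, ← ht]
    simpa using (MulAut.conj c).orderOf_eq t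
  have h2 : Nat.card {x : G // orderOf x = 2} ≤
      ∑ χ : IrrCharacter G, charDegree (χ : G → ℂ) :=
    H87.card_invol_le_sum.trans (Finset.sum_le_sum_of_subset (Finset.subset_univ _))
  have h3 : (∑ χ : IrrCharacter G, charDegree (χ : G → ℂ)) ^ 2 ≤
      Nat.card (ConjClasses G) * Nat.card G := by
    have := sq_sum_le_card_mul_sum_sq (s := Finset.univ)
      (f := fun χ : IrrCharacter G => charDegree (χ : G → ℂ))
    rwa [H87.sum_deg_sq, Finset.card_univ, ← Nat.card_eq_fintype_card,
      H6.card_irr_eq_card_conjClasses] at this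
  have h4 := (centralizer ({t} : Set G)).card_mul_index
  have h5 : (centralizer ({t} : Set G)).index ^ 2 ≤ Nat.card (ConjClasses G) * Nat.card G :=
    le_trans (Nat.pow_le_pow_left (h1.trans h2) 2) h3
  have hG : 0 < Nat.card G := Nat.card_pos
  refine Nat.le_of_mul_le_mul_right ?_ hG
  calc Nat.card G * Nat.card G
      = Nat.card (centralizer ({t} : Set G)) ^ 2 * (centralizer ({t} : Set G)).index ^ 2 := by
        rw [← mul_pow, h4, sq]
    _ ≤ Nat.card (centralizer ({t} : Set G)) ^ 2 * (Nat.card (ConjClasses G) * Nat.card G) :=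
        Nat.mul_le_mul_left _ h5
    _ = _ := by ring

/-- An involution with a bounded centralizer bounds the index of the Fitting subgroup. -/
theorem exists_bound_index_fitting_of_involution (m : ℕ) : ∃ N : ℕ,
    ∀ (G : Type*) [Group G] [Finite G] (t : G), orderOf t = 2 →
      Nat.card (centralizer ({t} : Set G)) ≤ m → (fittingSubgroup G).index ≤ N := by
  obtain ⟨N, hN⟩ := exists_bound_index_fitting (m ^ 2)
  exact ⟨N, fun G _ _ t ht hm => hN G ((card_le_sq_mul_card_conjClasses ht).trans
    (Nat.mul_le_mul_right _ (Nat.pow_le_pow_left hm 2)))⟩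

end H31
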