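import Mathlib
import Cfsg.Agent.Lib.Block.Strong
import Cfsg.Agent.Lib.Block.Alg
import Cfsg.Agent.Lib.Block.Apps
import Cfsg.Agent.Lib.Char.More

/-! Idempotents of the `p`-local group ring cut out of an integral element, the associated
projective characters, and a case of Frobenius' conjecture. -/

set_option autoImplicit false
set_option linter.style.haveILetI false

namespace H31

open Cfsg H33 MonoidAlgebra Polynomial
open scoped ComplexConjugate

theorem isCoprime_multiset_prod_left {R : Type*} [CommSemiring R] (s : Multiset R) (x : R)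
    (h : ∀ a ∈ s, IsCoprime a x) : IsCoprime s.prod x := by
  induction s using Multiset.induction_on with
  | empty => simpa using isCoprime_one_left
  | cons a s ih =>
    rw [Multiset.prod_cons]
    exact (h a (Multiset.mem_cons_self a s)).mul_left
      (ih fun b hb => h b (Multiset.mem_cons_of_mem hb))

variable {G : Type*} [Group G]

/-- The augmentation. -/
noncomputable def aug (G : Type*) [Group G] : MonoidAlgebra ℂ G →ₐ[ℂ] ℂ :=
  MonoidAlgebra.lift ℂ ℂ G 1

theorem aug_single (g : G) (c : ℂ) : aug G (single g c) = c := by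
  simp [aug]

theorem aug_eq_chiL [Fintype G] (x : MonoidAlgebra ℂ G) : aug G x = chiL (fun _ => 1) x := by
  conv_lhs => rw [eq_sum_single x]
  rw [chiL_apply, map_sum]
  simp [aug_single]

variable {M : Ideal AlgInt} [M.IsMaximal]

/-- Fitting-type idempotent attached to an integral element `b` of the local group ring and an
algebra homomorphism `ε` with `ε b` a unit. -/
theorem exists_idem_of_isIntegral [Finite G] {b : MonoidAlgebra ℂ G} (hb : b ∈ OG M G)
    (hint : IsIntegral ℤ b) (ε : MonoidAlgebra ℂ G →ₐ[ℂ] ℂ) (hc : red M (ε b) ≠ 0) :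
    ∃ f ∈ OG M G, f * f = f ∧ ε f = 1 ∧ ∃ w, f = b * w ∧ f = w * b := by
  classical
  obtain ⟨P, hP, hPb⟩ := hint
  set c := ε b with hcdef
  set Pc := P.map (Int.castRingHom ℂ) with hPc
  have hPcm : Pc.Monic := hP.map _
  have hsplit : Pc = (Pc.roots.map (X - C ·)).prod :=
    (IsAlgClosed.splits Pc).eq_prod_roots_of_monic hPcm
  have hroot : ∀ β ∈ Pc.roots, β ∈ O M := by
    intro β hβ
    refine mem_O_of_isIntegral M ⟨P, hP, ?_⟩
    have := (mem_roots hPcm.ne_zero).1 hβ
    rwa [IsRoot, hPc, eval_map] at this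
  set s : Multiset (O M) := Pc.roots.pmap (fun β h => (⟨β, h⟩ : O M)) hroot with hs
  have hsmap : s.map (fun β : O M => (β : ℂ)) = Pc.roots := by
    rw [hs, Multiset.map_pmap]
    exact (Multiset.pmap_eq_map _ id _ _).trans (Multiset.map_id _)
  let ev : (O M)[X] →+* MonoidAlgebra ℂ G :=
    (aeval b : ℂ[X] →ₐ[ℂ] MonoidAlgebra ℂ G).toRingHom.comp (mapRingHom (O M).subtype)
  have ev_apply : ∀ q, ev q = aeval b (q.map (O M).subtype) := fun q => rfl
  have evX : ev X = b := by simp [ev_apply]
  have evO : ∀ q, ev q ∈ OG M G := by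
    intro q
    induction q using Polynomial.induction_on with
    | C a => rw [ev_apply, map_C, aeval_C]; exact algebraMap_mem_OG a.2
    | add p q hp hq => rw [map_add]; exact add_mem hp hq
    | monomial n a h =>
      rw [pow_succ, ← mul_assoc, map_mul, evX]; exact mul_mem h hb
  have evε : ∀ q, ε (ev q) = (q.map (O M).subtype).eval c := by
    intro q
    rw [ev_apply, ← aeval_algHom_apply, coe_aeval_eq_eval]
  set s₁ := s.filter (fun β : O M => red M (β : ℂ) = red M c) with hs₁
  set s₀ := s.filter (fun β : O M => ¬ red M (β : ℂ) = red M c) with hs₀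
  set μ₁ : (O M)[X] := (s₁.map (fun β : O M => (X - C β : (O M)[X]))).prod with hμ₁
  set μ₀ : (O M)[X] := (s₀.map (fun β : O M => (X - C β : (O M)[X]))).prod with hμ₀
  have hlin : ∀ α β : O M, red M (α : ℂ) ≠ red M (β : ℂ) →
      IsCoprime (X - C α : (O M)[X]) (X - C β) := by
    intro α β h
    apply isCoprime_X_sub_C_of_isUnit_sub
    have h1 : red M ((α : ℂ) - β) ≠ 0 := by rw [red_sub α.2 β.2]; exact sub_ne_zero.2 h
    refine IsUnit.of_mul_eq_one (⟨_, inv_mem_O h1⟩ : O M) (Subtype.ext ?_)
    exact mul_inv_cancel₀ (ne_zero_of_red_ne_zero h1)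
  have hcop : IsCoprime μ₁ (X * μ₀) := by
    apply isCoprime_multiset_prod_left
    intro a ha
    obtain ⟨α, hα, rfl⟩ := Multiset.mem_map.1 ha
    have hα' := (Multiset.mem_filter.1 hα).2
    apply IsCoprime.mul_right
    · have := hlin α 0 (by
        rw [hα']
        have : red M ((0 : O M) : ℂ) = 0 := map_zero (redHom M)
        rw [this]; exact hc)
      simpa using this
    · apply IsCoprime.symm
      apply isCoprime_multiset_prod_left
      intro a' ha'
      obtain ⟨β, hβ, rfl⟩ := Multiset.mem_map.1 ha'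
      exact hlin β α (by rw [hα']; exact (Multiset.mem_filter.1 hβ).2)
  have hprod : (μ₁ * μ₀).map (O M).subtype = Pc := by
    rw [hμ₁, hμ₀, ← Multiset.prod_add, ← Multiset.map_add, hs₁, hs₀, Multiset.filter_add_not,
      Polynomial.map_multiset_prod, Multiset.map_map]
    conv_rhs => rw [hsplit, ← hsmap, Multiset.map_map]
    congr 1
    refine Multiset.map_congr rfl fun β _ => ?_
    simp
  have hzero : ev (μ₁ * μ₀) = 0 := by
    rw [ev_apply, hprod, hPc]
    have : (Int.castRingHom ℂ) = algebraMap ℤ ℂ := rfl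
    rw [this, aeval_map_algebraMap]
    exact hPb
  have hμ₁c : ε (ev μ₁) = 0 := by
    have h1 : ε (ev μ₁) * ε (ev μ₀) = 0 := by rw [← map_mul, ← map_mul, hzero, map_zero]
    refine (mul_eq_zero.1 h1).resolve_right ?_
    rw [evε, hμ₀, Polynomial.map_multiset_prod, eval_multiset_prod, Multiset.map_map,
      Multiset.map_map]
    intro h0
    obtain ⟨β, hβ, hβ0⟩ := Multiset.mem_map.1 (Multiset.prod_eq_zero_iff.1 h0)
    apply (Multiset.mem_filter.1 hβ).2
    have : c - β = 0 := by simpa using hβ0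
    rw [sub_eq_zero.1 this]
  obtain ⟨u, v, huv⟩ := hcop
  refine ⟨ev (v * (X * μ₀)), evO _, ?_, ?_, ev (v * μ₀), ?_, ?_⟩
  · rw [← map_mul]
    have : v * (X * μ₀) * (v * (X * μ₀)) = v * (X * μ₀) - (u * v * X) * (μ₁ * μ₀) := by
      linear_combination (v * (X * μ₀)) * huv
    rw [this, map_sub, map_mul ev (u * v * X), hzero, mul_zero, sub_zero]
  · have : v * (X * μ₀) = 1 - u * μ₁ := by linear_combination huv
    rw [this, map_sub, map_sub, map_one, map_one, map_mul, map_mul, hμ₁c, mul_zero, sub_zero]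
  · rw [← evX, ← map_mul]; congr 1; ring
  · rw [← evX, ← map_mul]; congr 1; ring

/-- The class function `g ↦ ∑ a, f (a⁻¹ g a)` attached to an element of the group algebra. -/
noncomputable def projFun [Fintype G] (f : MonoidAlgebra ℂ G) (g : G) : ℂ :=
  ∑ a, f.coeff (a⁻¹ * g * a)

theorem isClassFunction_projFun [Fintype G] (f : MonoidAlgebra ℂ G) :
    IsClassFunction G (projFun f) := by
  intro g h
  unfold projFun
  refine Fintype.sum_equiv (Equiv.mulLeft h⁻¹) _ _ fun a => ?_
  simp [mul_assoc]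

theorem inner_projFun [Fintype G] (f : MonoidAlgebra ℂ G) {χ : G → ℂ}
    (hχ : IsClassFunction G χ) :
    classInner (projFun f) χ = chiL (fun g => conj (χ g)) f := by
  rw [H7.classInner_def, chiL_apply]
  simp only [projFun, Finset.sum_mul]
  rw [Finset.sum_comm]
  have : ∀ a : G, ∑ g, f.coeff (a⁻¹ * g * a) * conj (χ g) = ∑ g, f.coeff g * conj (χ g) := by
    intro a
    refine Fintype.sum_equiv ((Equiv.mulRight a).trans (Equiv.mulLeft a⁻¹)) _ _ fun g => ?_
    simp only [Equiv.trans_apply, Equiv.coe_mulRight, Equiv.coe_mulLeft]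
    rw [← mul_assoc, H6.classFun_conj' hχ]
  simp only [this, Finset.sum_const, Finset.card_univ, nsmul_eq_mul]
  rw [← mul_assoc, Nat.card_eq_fintype_card, inv_mul_cancel₀ (by simp), one_mul]

theorem chiL_idem {V : Type*} [AddCommGroup V] [Module ℂ V] [FiniteDimensional ℂ V]
    (ρ : Representation ℂ G V) {f : MonoidAlgebra ℂ G} (hf : f * f = f) :
    chiL ρ.character f = (Module.finrank ℂ (LinearMap.range (ρ.asAlgebraHom f)) : ℕ) := by
  rw [chiL_character]
  have : IsIdempotentElem (ρ.asAlgebraHom f) := by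
    rw [IsIdempotentElem, ← map_mul, hf]
  exact (LinearMap.IsIdempotentElem.isProj_range _ this).trace

theorem isCharacter_projFun [Fintype G] {f : MonoidAlgebra ℂ G} (hf : f * f = f) :
    IsCharacter G (projFun f) := by
  refine H6.isCharacter_of_inner (isClassFunction_projFun f) fun χ hχ => ?_
  rw [inner_projFun f (H6.irr_isClassFunction hχ)]
  obtain ⟨n, ρ, h⟩ := H6.isCharacter_conj (H6.irr_isCharacter hχ)
  rw [← h]
  exact ⟨_, chiL_idem ρ hf⟩

/-- The character of an idempotent of the local group ring vanishes on `p`-singular elements. -/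
theorem projFun_eq_zero [Fintype G] {p : ℕ} (hM : IsPModular p M) {f : MonoidAlgebra ℂ G}
    (hO : f ∈ OG M G) (hf : f * f = f) {g : G} (hg : p ∣ orderOf g) : projFun f g = 0 := by
  classical
  have := H34.sum_perm_eq_zero hM (Matrix.of fun a b : G => f.coeff (a⁻¹ * b))
    (fun a b => mem_OG.1 hO _) (by
      ext a b
      rw [Matrix.mul_apply, Matrix.of_apply]
      conv_rhs => rw [← hf, coeff_mul_sum]
      refine Fintype.sum_equiv (Equiv.mulLeft a⁻¹) _ _ fun c => ?_
      simp [mul_assoc]) (Equiv.mulLeft g) (fun a b => by simp [mul_assoc]) (by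
      intro x n hx
      rw [Equiv.zpow_mulLeft, Equiv.coe_mulLeft, mul_eq_right] at hx
      exact (Int.natCast_dvd_natCast.2 hg).trans (orderOf_dvd_iff_zpow_eq_one.2 hx))
  simpa [projFun, mul_assoc] using this

/-- Multiplicities in the character of `f` are bounded by those of `e` if `f ∈ e A` or `A e`. -/
theorem exists_inner_projFun_le [Fintype G] {f e : MonoidAlgebra ℂ G} (hf : f * f = f)
    (he : e * e = e) (h : ∃ w, f = e * w ∨ f = w * e) {χ : G → ℂ} (hχ : IsCharacter G χ) :
    ∃ d m : ℕ, d ≤ m ∧ classInner (projFun f) χ = d ∧ classInner (projFun e) χ = m := by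
  rw [inner_projFun f (H6.char_isClassFunction hχ), inner_projFun e (H6.char_isClassFunction hχ)]
  obtain ⟨n, ρ, hρ⟩ := H6.isCharacter_conj hχ
  rw [← hρ]
  refine ⟨_, _, ?_, chiL_idem ρ hf, chiL_idem ρ he⟩
  obtain ⟨w, rfl | rfl⟩ := h
  · apply Submodule.finrank_mono
    rw [map_mul]
    exact LinearMap.range_comp_le_range _ _
  · rw [map_mul, Module.End.mul_eq_comp, LinearMap.range_comp]
    exact Submodule.finrank_map_le _ _

open Classical in
/-- The sum of the elements of a subgroup. -/
noncomputable def subSum [Finite G] (H : Subgroup G) : MonoidAlgebra ℂ G :=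
  mk fun g => if g ∈ H then 1 else 0

open Classical in
theorem coeff_subSum [Finite G] (H : Subgroup G) (g : G) :
    (subSum H).coeff g = if g ∈ H then 1 else 0 := rfl

theorem sum_ite_mem [Fintype G] (H : Subgroup G) [DecidablePred (· ∈ H)] (c : ℂ) :
    ∑ g : G, (if g ∈ H then c else 0) = Nat.card H * c := by
  rw [← Finset.sum_filter, Finset.sum_const, nsmul_eq_mul, Nat.card_eq_fintype_card,
    Fintype.card_subtype]

theorem subSum_mul_self [Finite G] (H : Subgroup G) :
    subSum H * subSum H = (Nat.card H : ℂ) • subSum H := by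
  classical
  haveI := Fintype.ofFinite G
  refine alg_ext fun g => ?_
  rw [coeff_mul_sum, coeff_smul_apply', ← sum_ite_mem]
  refine Finset.sum_congr rfl fun h _ => ?_
  simp only [coeff_subSum]
  by_cases hh : h ∈ H
  · simp [hh, H.mul_mem_cancel_left (H.inv_mem hh)]
  · simp [hh]

theorem aug_subSum [Finite G] (H : Subgroup G) : aug G (subSum H) = Nat.card H := by
  classical
  haveI := Fintype.ofFinite G
  rw [aug_eq_chiL, chiL_apply]
  simp only [coeff_subSum, mul_one]
  rw [sum_ite_mem, mul_one]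

theorem isIntegral_of_coeff_int [Finite G] {b : MonoidAlgebra ℂ G}
    (hb : ∀ g, ∃ z : ℤ, b.coeff g = z) : IsIntegral ℤ b := by
  choose z hz using hb
  have h1 : IsIntegral ℤ (mk z : MonoidAlgebra ℤ G) := Algebra.IsIntegral.isIntegral _
  have h2 : b = MonoidAlgebra.mapRingHom G (Int.castRingHom ℂ) (mk z) := by
    refine alg_ext fun g => ?_
    rw [hz]; simp
  rw [h2]
  exact h1.map (MonoidAlgebra.mapRingHom G (Int.castRingHom ℂ)).toIntAlgHom

/-- If `Q`, `R` are `p'`-subgroups of coprime orders, there is a character vanishing on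
`p`-singular elements, containing the trivial character once, of norm at most
`|G| / (|Q| |R|)`. -/
theorem exists_proj_char [Fintype G] {p : ℕ} (hp : p.Prime) (Q R : Subgroup G)
    (hQ : ¬ p ∣ Nat.card Q) (hR : ¬ p ∣ Nat.card R) (hQR : (Nat.card Q).Coprime (Nat.card R)) :
    ∃ Φ : G → ℂ, IsCharacter G Φ ∧ (∀ g, p ∣ orderOf g → Φ g = 0) ∧
      classInner Φ (fun _ => 1) = 1 ∧
      (classInner Φ Φ).re * (Nat.card Q * Nat.card R) ≤ Nat.card G := by
  classical
  haveI := Fact.mk hp
  obtain ⟨M, hM⟩ := exists_isPModular p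
  haveI := isMaximal_of hM
  have hint : ∀ g, ∃ z : ℤ, (subSum Q * subSum R).coeff g = z := by
    intro g
    refine ⟨∑ h, (if h ∈ Q then 1 else 0) * (if h⁻¹ * g ∈ R then 1 else 0), ?_⟩
    rw [coeff_mul_sum]
    simp only [coeff_subSum]
    push_cast
    rfl
  obtain ⟨f, hfO, hff, hf1, w, hw1, hw2⟩ := exists_idem_of_isIntegral (M := M)
    (b := subSum Q * subSum R) (mem_OG.2 fun g => by
      obtain ⟨z, hz⟩ := hint g
      rw [hz]; exact intCast_mem _ z) (isIntegral_of_coeff_int hint) (aug G) (by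
      rw [map_mul, aug_subSum, aug_subSum, ← Nat.cast_mul]
      exact red_natCast_ne_zero hM fun h => ((Nat.Prime.dvd_mul hp).1 h).elim hQ hR)
  have hidem : ∀ H : Subgroup G, ((Nat.card H : ℂ)⁻¹ • subSum H) * ((Nat.card H : ℂ)⁻¹ • subSum H)
      = (Nat.card H : ℂ)⁻¹ • subSum H := by
    intro H
    have : (Nat.card H : ℂ) ≠ 0 := H7.card_ne_zero' H
    rw [smul_mul_smul_comm, subSum_mul_self, smul_smul]
    congr 1; field_simp
  set eQ := (Nat.card Q : ℂ)⁻¹ • subSum Q with heQ
  set eR := (Nat.card R : ℂ)⁻¹ • subSum R with heR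
  have hQ0 : (Nat.card Q : ℂ) ≠ 0 := H7.card_ne_zero' Q
  have hR0 : (Nat.card R : ℂ) ≠ 0 := H7.card_ne_zero' R
  have hG0 : (Nat.card G : ℂ) ≠ 0 := H7.card_ne_zero' G
  have h1 : ∃ w, f = eQ * w ∨ f = w * eQ := ⟨(Nat.card Q : ℂ) • (subSum R * w), Or.inl (by
    rw [heQ, smul_mul_smul_comm, inv_mul_cancel₀ hQ0, one_smul, ← mul_assoc]; exact hw1)⟩
  have h2 : ∃ w, f = eR * w ∨ f = w * eR := ⟨(Nat.card R : ℂ) • (w * subSum Q), Or.inr (by
    rw [heR, smul_mul_smul_comm, mul_inv_cancel₀ hR0, one_smul, mul_assoc]; exact hw2)⟩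
  refine ⟨projFun f, isCharacter_projFun hff, fun g hg => projFun_eq_zero hM hfO hff hg, ?_, ?_⟩
  · rw [inner_projFun f (H6.isClassFunction_const 1)]
    rw [aug_eq_chiL] at hf1
    simpa using hf1
  have hle : (classInner (projFun f) (projFun f)).re ≤
      (classInner (projFun eQ) (projFun eR)).re := by
    rw [H6.parseval (isClassFunction_projFun f), H6.parseval (isClassFunction_projFun eQ),
      Complex.re_sum, Complex.re_sum]
    refine Finset.sum_le_sum fun χ _ => ?_
    obtain ⟨d, m, hdm, hd, hm⟩ := exists_inner_projFun_le hff (hidem Q) h1 (H6.irr_isCharacter χ.2)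
    obtain ⟨d', m', hdm', hd', hm'⟩ :=
      exists_inner_projFun_le hff (hidem R) h2 (H6.irr_isCharacter χ.2)
    have hdd : d' = d := by rw [hd] at hd'; exact_mod_cast hd'.symm
    subst hdd
    rw [hd, hm, hm']
    simp only [map_natCast, ← Nat.cast_mul, Complex.natCast_re, Nat.cast_le]
    exact Nat.mul_le_mul hdm hdm'
  have hval : classInner (projFun eQ) (projFun eR) =
      (Nat.card G : ℂ) / (Nat.card Q * Nat.card R) := by
    rw [H7.classInner_def, Finset.sum_eq_single 1]
    · simp only [projFun, heQ, heR, coeff_smul_apply', coeff_subSum, mul_one, inv_mul_cancel,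
        one_mem, if_true, Finset.sum_const, Finset.card_univ, nsmul_eq_mul, map_mul, map_natCast,
        map_inv₀, ← Nat.card_eq_fintype_card]
      field_simp
    · intro g _ hg
      by_cases h : ∃ a, a⁻¹ * g * a ∈ Q
      · obtain ⟨a, ha⟩ := h
        have : projFun eR g = 0 := by
          refine Finset.sum_eq_zero fun c _ => ?_
          rw [heR, coeff_smul_apply', coeff_subSum, if_neg, mul_zero]
          intro hc
          have e1 := Subgroup.orderOf_dvd_natCard Q ha
          have e2 := Subgroup.orderOf_dvd_natCard R hc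
          have e3 : ∀ t : G, orderOf (t⁻¹ * g * t) = orderOf g := fun t => by
            have := (MulAut.conj t⁻¹).orderOf_eq g
            simpa using this
          rw [e3] at e1 e2
          exact hg (orderOf_eq_one_iff.1 (Nat.eq_one_of_dvd_coprimes hQR e1 e2))
        rw [this, map_zero, mul_zero]
      · push Not at h
        have : projFun eQ g = 0 := by
          refine Finset.sum_eq_zero fun c _ => ?_
          rw [heQ, coeff_smul_apply', coeff_subSum, if_neg (h c), mul_zero]
        rw [this, zero_mul]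
    · simp
  rw [hval] at hle
  have hre : ((Nat.card G : ℂ) / (Nat.card Q * Nat.card R)).re =
      (Nat.card G : ℝ) / (Nat.card Q * Nat.card R) := by
    rw [← Complex.ofReal_natCast, ← Complex.ofReal_natCast, ← Complex.ofReal_natCast,
      ← Complex.ofReal_mul, ← Complex.ofReal_div, Complex.ofReal_re]
  rw [hre, le_div_iff₀ (by
    have := Nat.card_pos (α := Q); have := Nat.card_pos (α := R); positivity)] at hle
  exact hle

/-- If the number of `p`-regular elements equals `|Q| |R|` for `p'`-subgroups `Q`, `R` of coprime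
orders, the `p`-regular elements form a normal subgroup. -/
theorem exists_normal_of_card_pRegular [Finite G] {p : ℕ} (hp : p.Prime) (Q R : Subgroup G)
    (hQ : ¬ p ∣ Nat.card Q) (hR : ¬ p ∣ Nat.card R) (hQR : (Nat.card Q).Coprime (Nat.card R))
    (hcount : Nat.card {g : G // ¬ p ∣ orderOf g} = Nat.card Q * Nat.card R) :
    ∃ N : Subgroup G, N.Normal ∧ ∀ g, g ∈ N ↔ ¬ p ∣ orderOf g := by
  classical
  haveI := Fintype.ofFinite G
  obtain ⟨Φ, hΦ, h0, h1, h2⟩ := exists_proj_char hp Q R hQ hR hQR
  set X := Finset.univ.filter fun g : G => ¬ p ∣ orderOf g with hX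
  have hXc : (X.card : ℝ) = Nat.card Q * Nat.card R := by
    rw [← Nat.cast_mul, ← hcount, Nat.card_eq_fintype_card, Fintype.card_subtype]
  have hG0 : (0 : ℝ) < Nat.card G := by exact_mod_cast Nat.card_pos
  have hX0 : (0 : ℝ) < X.card := by
    rw [hXc]; have := Nat.card_pos (α := Q); have := Nat.card_pos (α := R); positivity
  have hs1 : ∑ g ∈ X, (Φ g).re = Nat.card G := by
    rw [H6.classInner_one_right, inv_mul_eq_one₀ (H7.card_ne_zero' G)] at h1
    have := congrArg Complex.re h1
    rw [Complex.natCast_re, Complex.re_sum] at this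
    rw [this, hX, Finset.sum_filter]
    refine Finset.sum_congr rfl fun g _ => ?_
    split_ifs with h
    · rw [h0 g h]; simp
    · rfl
  have hs2 : (∑ g ∈ X, ‖Φ g‖ ^ 2) * X.card ≤ (Nat.card G : ℝ) ^ 2 := by
    rw [H6.classInner_self_re, ← hXc] at h2
    have h3 : ∑ g ∈ X, ‖Φ g‖ ^ 2 ≤ ∑ g, ‖Φ g‖ ^ 2 :=
      Finset.sum_le_sum_of_subset_of_nonneg (Finset.subset_univ _) fun _ _ _ => by positivity
    have h4 : (∑ g, ‖Φ g‖ ^ 2) * X.card ≤ (Nat.card G : ℝ) ^ 2 := by
      rw [mul_assoc, inv_mul_le_iff₀ hG0] at h2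
      rw [sq]; exact h2
    exact le_trans (mul_le_mul_of_nonneg_right h3 hX0.le) h4
  set c : ℝ := Nat.card G / X.card with hc
  have hs3 : ∑ g ∈ X, ‖Φ g - c‖ ^ 2 ≤ 0 := by
    have e : ∀ g, ‖Φ g - c‖ ^ 2 = ‖Φ g‖ ^ 2 - 2 * c * (Φ g).re + c ^ 2 := fun g => by
      rw [Complex.sq_norm, Complex.sq_norm, Complex.normSq_apply, Complex.normSq_apply]
      simp; ring
    simp only [e, Finset.sum_add_distrib, Finset.sum_sub_distrib, ← Finset.mul_sum, hs1,
      Finset.sum_const, nsmul_eq_mul]
    have h5 : ∑ g ∈ X, ‖Φ g‖ ^ 2 ≤ (Nat.card G : ℝ) ^ 2 / X.card := by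
      rw [le_div_iff₀ hX0]; exact hs2
    have h6 : (Nat.card G : ℝ) ^ 2 / X.card - 2 * c * Nat.card G + X.card * c ^ 2 = 0 := by
      rw [hc]; field_simp; ring
    linarith
  have hconst : ∀ g ∈ X, Φ g = c := by
    intro g hg
    have := (Finset.sum_eq_zero_iff_of_nonneg (fun _ _ => by positivity)).1
      (le_antisymm hs3 (Finset.sum_nonneg fun _ _ => by positivity)) g hg
    rwa [sq_eq_zero_iff, norm_eq_zero, sub_eq_zero] at this
  have h1X : (1 : G) ∈ X := by
    rw [hX, Finset.mem_filter, orderOf_one]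
    exact ⟨Finset.mem_univ _, fun h => hp.one_lt.ne' (Nat.dvd_one.1 h)⟩
  refine ⟨H6.charKer Φ, inferInstance, fun g => ?_⟩
  rw [H6.mem_charKer hΦ, hconst 1 h1X]
  constructor
  · intro h hd
    rw [h0 g hd] at h
    have : c = 0 := by exact_mod_cast h.symm
    exact absurd this (by rw [hc]; positivity)
  · intro h
    exact hconst g (by rw [hX, Finset.mem_filter]; exact ⟨Finset.mem_univ _, h⟩)

end H31
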